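import Cfsg.Agent.H0.MA7.D
import Cfsg.Agent.H0.TCA74.Main
import Cfsg.Agent.H0.TCA73.Main
import Cfsg.Agent.H0.TCA72.Main
import Cfsg.Agent.H0.TCA71.Main
import Cfsg.Agent.H0.TCA70.Main
set_option maxRecDepth 100000
set_option Elab.async false
set_option linter.unusedSectionVars false
namespace H0.MA7
open H0 BN 
theorem rels : ∀ r ∈ B, ev R.p r = 1 := all_take_done (all_take_step (all_take_zero _ B) (rels_of_relsW R c0)) (by decide +kernel)
theorem defs_ok : DefsOK R.p defs 16 := defsOK_of_chk c1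
variable {G : Type} [Group G] (P : Pres G 16 B)
noncomputable def m : Model G := P.model defs R rels (by decide +kernel) defs_ok R_ge
include P
theorem mR : (m P).R = R := rfl
theorem g_eq {x : ℕ} (h : x < 16) : (m P).g x = P.g x := extG_out defs P.g 16 (Or.inl h)
theorem top : gen (m P).g (lets 16) = ⊤ := (gen_extG defs P.g 16 (by decide)).trans P.top
theorem grel : ∀ r ∈ B, ev (m P).g r = 1 := rels_extG defs 16 (by decide +kernel) P.rel
theorem hi : ∀ x < 16, (m P).g x * (m P).g (inv x) = 1 := inv_of_invChk (grel P) (by decide +kernel)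
theorem upper : Finite G ∧ Nat.card G ≤ 2520 := card_of_top (top P) ((chain_step (σ := [[0], [1], [2], [3], [4], [5], [6], [7], [8], [9], [10], [11], [12], [13], [14], [15]]) (n := 7) H0.TCA70.main rfl rfl (rels_of_consChk (grel P) 16 inv (by decide +kernel)) (chain_step (σ := [[4], [5], [6], [7], [8], [9], [10], [11], [12], [13], [14], [15]]) (n := 6) H0.TCA71.main rfl rfl (rels_of_consChk (grel P) 16 inv (by decide +kernel)) (chain_step (σ := [[8], [9], [10], [11], [12], [13], [14], [15]]) (n := 5) H0.TCA72.main rfl rfl (rels_of_consChk (grel P) 16 inv (by decide +kernel)) (chain_step (σ := [[11], [12], [13], [14], [15]]) (n := 4) H0.TCA73.main rfl rfl (rels_of_consChk (grel P) 16 inv (by decide +kernel)) (chain_step (σ := [[14], [15]]) (n := 3) H0.TCA74.main rfl rfl (rels_of_consChk (grel P) 16 inv (by decide +kernel)) (chain_start _)))))).imp_right fun h => h.trans (by decide +kernel))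
theorem fin : Finite G := (upper P).1
theorem card_base : Nat.card G = 2520 ∧ (m P).pst [4, 3, 2, 1, 0] = ⊥ :=
  haveI := fin P
  (m P).card_done ((m P).card_step (lo := 4) (d := 3) (Model.via _ (mR P) (fun R => Model.fixW R [3, 2, 1, 0] [[14]]) c10) ((m P).inOrb_grow [0, 0] ((m P).inOrb_self _ 4) (Model.via _ (mR P) (fun R => Model.growW R [[14]] [0, 0] (Nat.pow 2 4) (ival 4 3)) c11)) (Model.via _ (mR P) (fun R => Nat.ble (4 + 3) R.N) (by decide +kernel)) ((m P).card_step (lo := 3) (d := 4) (Model.via _ (mR P) (fun R => Model.fixW R [2, 1, 0] [[11], [12]]) c8) ((m P).inOrb_grow [0, 1, 0] ((m P).inOrb_self _ 3) (Model.via _ (mR P) (fun R => Model.growW R [[11], [12]] [0, 1, 0] (Nat.pow 2 3) (ival 3 4)) c9)) (Model.via _ (mR P) (fun R => Nat.ble (3 + 4) R.N) (by decide +kernel)) ((m P).card_step (lo := 2) (d := 5) (Model.via _ (mR P) (fun R => Model.fixW R [1, 0] [[8], [9]]) c6) ((m P).inOrb_grow [0, 1, 0, 1] ((m P).inOrb_self _ 2) (Model.via _ (mR P) (fun R => Model.growW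 R [[8], [9]] [0, 1, 0, 1] (Nat.pow 2 2) (ival 2 5)) c7)) (Model.via _ (mR P) (fun R => Nat.ble (2 + 5) R.N) (by decide +kernel)) ((m P).card_step (lo := 1) (d := 6) (Model.via _ (mR P) (fun R => Model.fixW R [0] [[4], [6]]) c4) ((m P).inOrb_grow [0, 1, 0] ((m P).inOrb_self _ 1) (Model.via _ (mR P) (fun R => Model.growW R [[4], [6]] [0, 1, 0] (Nat.pow 2 1) (ival 1 6)) c5)) (Model.via _ (mR P) (fun R => Nat.ble (1 + 6) R.N) (by decide +kernel)) ((m P).card_step (lo := 0) (d := 7) (Model.via _ (mR P) (fun R => Model.fixW R [] [[0], [2]]) c2) ((m P).inOrb_grow [0, 0, 1, 0, 0, 1] ((m P).inOrb_self _ 0) (Model.via _ (mR P) (fun R => Model.growW R [[0], [2]] [0, 0, 1, 0, 0, 1] (Nat.pow 2 0) (ival 0 7)) c3)) (Model.via _ (mR P) (fun R => Nat.ble (0 + 7) R.N) (by decide +kernel)) ((m P).card_start)))))) (upper P).2 (by decide +kernel)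
theorem card : Nat.card G = 2520 := (card_base P).1
theorem base : (m P).pst [4, 3, 2, 1, 0] = ⊥ := (card_base P).2
theorem inj : Function.Injective (m P).φ := (m P).inj_of_base (base P)
theorem trans : (m P).orb ⊤ 0 = Set.Ico 0 (0 + 7) :=
  (m P).orb_eq_ico' ((m P).inOrb_mono le_top ((m P).inOrb_grow [0, 0, 1, 0, 0, 1] ((m P).inOrb_self _ 0) (Model.via _ (mR P) (fun R => Model.growW R [[0], [2]] [0, 0, 1, 0, 0, 1] (Nat.pow 2 0) (ival 0 7)) c12))) (top P).ge (Model.via _ (mR P) (fun R => Model.invW R [[0], [1], [2], [3], [4], [5], [6], [7], [8], [9], [10], [11], [12], [13], [14], [15]] 0 7) c13) (by decide)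
theorem sub1 : (m P).InOrb (gen (m P).g [[4], [6]]) 6 (ival 1 6) := ((m P).inOrb_grow [1, 0, 1, 0] ((m P).inOrb_self _ 6) (Model.via _ (mR P) (fun R => Model.growW R [[4], [6]] [1, 0, 1, 0] (Nat.pow 2 6) (ival 1 6)) c15))
theorem coatom : IsCoatom ((m P).pst [0]) := (m P).coatom (trans P) (by decide) ((m P).maxUpTo_step ((m P).maxUpTo_one 7) (Model.via _ (mR P) (fun R => Model.fixW R [0] [[4], [6]]) c14) (sub1 P) (Model.via _ (mR P) (fun R => Nat.ble (1 + 6) R.N) (by decide +kernel)) (Model.via _ (mR P) (fun R => Nat.ble (0 + 7) R.N) (by decide +kernel)) (Model.via _ (mR P) (fun R => mapsW R [0] (Nat.pow 2 0) (Nat.pow 2 6)) c16) ((m P).inOrb_grow [0, 0, 1, 0, 0, 1] ((m P).inOrb_self _ 0) (Model.via _ (mR P) (fun R => Model.growW R [[0], [4], [6]] [0, 0, 1, 0, 0, 1] (Nat.pow 2 0) (ival 0 7)) c17)))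
theorem ng : ∀ N : Subgroup G, N.Normal → ev (m P).g [16] ∈ N → N = ⊤ :=
  ng_top (hi P) ngSt [16] (by decide) (all_take_done (all_take_step (all_take_zero _ ngR) ((m P).ev_one (inj P) (Model.via _ (mR P) (fun R => relsW R 0 R.lg ((ngR.drop 0).take 32)) c18))) (by decide +kernel)) (top P) (by decide)
theorem card_stab : Nat.card ((m P).pst [0]) = 360 := (m P).card_stab (trans P) (by rw [card P]) (by decide)
theorem simple : IsSimpleGroup G :=
  haveI := fin P
  simple_of_coatom _ (coatom P) (fun N hN h => (m P).normal_le_stab (trans P) (base P) (by decide) N h)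
    (ev (m P).g [16]) 7 (by rw [← ev_wpow]; exact (all_take_done (all_take_step (all_take_zero _ xR) ((m P).ev_one (inj P) (Model.via _ (mR P) (fun R => relsW R 0 R.lg ((xR.drop 0).take 1)) c19))) (by decide +kernel)) _ (List.mem_singleton_self _))
    (by rw [card_stab P]; decide +kernel) (ng P)
end H0.MA7
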